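import Mathlib.GroupTheory.Perm.Sign
import Mathlib.GroupTheory.Sylow
import Mathlib.GroupTheory.SpecificGroups.Alternating

/-!
A Sylow 2-subgroup of A₈ has no two-generated abelian subgroup of index at most four.
-/

set_option autoImplicit false
set_option maxRecDepth 20000

namespace Cfsg.Agent.Lib.Chev.G2AltSection

open Equiv

/-- A binary digit. -/
def bit2 (c j : ℕ) : ℕ := c / 2 ^ j % 2

/-- Addition of digits. -/
def add2 (a b : ℕ) : ℕ := (a + b) % 2

/-- The action of a code of the iterated wreath product. -/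
def img (c i : ℕ) : ℕ :=
  4 * add2 (i / 4) (bit2 c 6) + 2 * add2 (i / 2 % 2) (bit2 c (4 + i / 4)) + add2 (i % 2) (bit2 c (i / 2))

/-- The inverse action. -/
def imgInv (c j : ℕ) : ℕ :=
  let h := add2 (j / 4) (bit2 c 6)
  let m := add2 (j / 2 % 2) (bit2 c (4 + h))
  4 * h + 2 * m + add2 (j % 2) (bit2 c (2 * h + m))

/-- The code of an action. -/
def codeOf (f : ℕ → ℕ) : ℕ :=
  64 * (f 0 / 4) + 32 * (f 4 / 2 % 2) + 16 * (f 0 / 2 % 2) + 8 * (f 6 % 2) + 4 * (f 4 % 2) + 2 * (f 2 % 2) + f 0 % 2

/-- The code of a composition. -/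
def mulC (c d : ℕ) : ℕ := codeOf fun i => img c (img d i)

theorem img_inv : ((List.range 128).all fun c => (List.range 8).all fun i =>
    decide (img c i < 8) && decide (imgInv c i < 8) && decide (imgInv c (img c i) = i) &&
      decide (img c (imgInv c i) = i)) = true := by decide +kernel

theorem code_img : ((List.range 128).all fun c => decide (codeOf (img c) = c)) = true := by decide +kernel

theorem mul_checked : ((List.range 128).all fun c => (List.range 128).all fun d =>
    decide (mulC c d < 128) && (List.range 8).all fun i => decide (img (mulC c d) i = img c (img d i))) = true := by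
  decide +kernel

/-- Parity. -/
def par (c : ℕ) : ℕ := (bit2 c 0 + bit2 c 1 + bit2 c 2 + bit2 c 3) % 2

/-- The permutation of a code. -/
def permC (c : Fin 128) : Perm (Fin 8) where
  toFun i := ⟨img c i, by
    have h := img_inv
    simp only [List.all_eq_true, List.mem_range, Bool.and_eq_true, decide_eq_true_eq] at h
    exact (h c c.2 i i.2).1.1.1⟩
  invFun i := ⟨imgInv c i, by
    have h := img_inv
    simp only [List.all_eq_true, List.mem_range, Bool.and_eq_true, decide_eq_true_eq] at h
    exact (h c c.2 i i.2).1.1.2⟩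
  left_inv i := Fin.ext (by
    have h := img_inv
    simp only [List.all_eq_true, List.mem_range, Bool.and_eq_true, decide_eq_true_eq] at h
    exact (h c c.2 i i.2).1.2)
  right_inv i := Fin.ext (by
    have h := img_inv
    simp only [List.all_eq_true, List.mem_range, Bool.and_eq_true, decide_eq_true_eq] at h
    exact (h c c.2 i i.2).2)

theorem sign_checked : ∀ c : Fin 128, Perm.sign (permC c) = 1 → par c = 0 := by decide +kernel

theorem permC_injective : Function.Injective permC := fun c d h => by
  have hc := code_img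
  simp only [List.all_eq_true, List.mem_range, decide_eq_true_eq] at hc
  refine Fin.ext ?_
  rw [← hc c c.2, ← hc d d.2]
  have e : ∀ i : Fin 8, img c i = img d i := fun i => congrArg (fun π : Perm (Fin 8) => (π i : ℕ)) h
  have e0 := e 0; have e2 := e 2; have e4 := e 4; have e6 := e 6
  simp only [codeOf]
  norm_num at e0 e2 e4 e6 ⊢
  rw [e0, e2, e4, e6]

theorem permC_mul (c d : Fin 128) : ∃ e, permC c * permC d = permC e := by
  have h := mul_checked
  simp only [List.all_eq_true, List.mem_range, Bool.and_eq_true, decide_eq_true_eq] at h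
  exact ⟨⟨mulC c d, (h c c.2 d d.2).1⟩, Equiv.ext fun i => Fin.ext ((h c c.2 d d.2).2 i i.2).symm⟩

/-- A Sylow 2-subgroup of S₈. -/
def sylEight : Subgroup (Perm (Fin 8)) where
  carrier := Set.range permC
  one_mem' := ⟨0, Equiv.ext fun i => Fin.ext ((by decide +kernel : ∀ i : Fin 8, img 0 i = i) i)⟩
  mul_mem' := by
    rintro _ _ ⟨c, rfl⟩ ⟨d, rfl⟩
    obtain ⟨e, he⟩ := permC_mul c d
    exact ⟨e, he.symm⟩
  inv_mem' := by
    rintro _ ⟨c, rfl⟩
    have key : ∀ k : ℕ, permC c ^ (k + 1) ∈ Set.range permC := by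
      intro k
      induction k with
      | zero => exact ⟨c, (pow_one _).symm⟩
      | succ k ih =>
        obtain ⟨d, hd⟩ := ih
        obtain ⟨e, he⟩ := permC_mul d c
        exact ⟨e, by rw [pow_succ _ (k + 1), ← hd, he]⟩
    have hpos := orderOf_pos (permC c)
    rcases Nat.lt_or_ge (orderOf (permC c)) 2 with h | h
    · have h1 : permC c = 1 := orderOf_eq_one_iff.1 (by omega)
      exact ⟨c, by rw [h1, inv_one]⟩
    · have e : (permC c)⁻¹ = permC c ^ (orderOf (permC c) - 2 + 1) := by
        refine inv_eq_of_mul_eq_one_right ?_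
        rw [← pow_succ', show orderOf (permC c) - 2 + 1 + 1 = orderOf (permC c) by omega, pow_orderOf_eq_one]
      rw [e]
      exact key _

theorem card_sylEight : Nat.card sylEight = 128 := by
  show Nat.card (Set.range permC) = 128
  rw [Nat.card_range_of_injective permC_injective, Nat.card_fin]

/-- The pair check. -/
def pairB (c d : ℕ) : Bool :=
  let rep : ℕ → ℕ → ℕ → ℕ := fun e k p => (fun q => img e q)^[k] p
  !((List.range 8).all fun p => decide (img c (img d p) = img d (img c p))) ||
    (List.range 4).any fun i => (List.range 4).any fun j =>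
      !(decide (i = 0) && decide (j = 0)) && (List.range 8).all fun p => decide (rep c i (rep d j p) = p)

theorem pair_checked : ((List.range 128).all fun c => decide (par c = 1) ||
    ((List.range 128).all fun d => decide (par d = 1) || pairB c d)) = true := by decide +kernel

theorem four_checked : ((List.range 128).all fun c => decide (par c = 1) ||
    (List.range 8).all fun p => decide (img c (img c (img c (img c p))) = p)) = true := by decide +kernel

theorem permC_pow_apply (c : Fin 128) : ∀ (k : ℕ) (i : Fin 8),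
    (((permC c ^ k) i : Fin 8) : ℕ) = (fun q => img c q)^[k] i
  | 0, i => rfl
  | k + 1, i => by
    rw [pow_succ', Perm.mul_apply, Function.iterate_succ_apply', ← permC_pow_apply c k i]
    rfl

/-- Two commuting even permutations of the Sylow subgroup generate fewer than sixteen elements. -/
theorem relation_of_comm {x y : Perm (Fin 8)} (hx : x ∈ sylEight) (hy : y ∈ sylEight) (hx1 : Perm.sign x = 1)
    (hy1 : Perm.sign y = 1) (hxy : Commute x y) :
    x ^ 4 = 1 ∧ ∃ i j : Fin 4, (i ≠ 0 ∨ j ≠ 0) ∧ x ^ (i : ℕ) * y ^ (j : ℕ) = 1 := by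
  obtain ⟨c, rfl⟩ := hx
  obtain ⟨d, rfl⟩ := hy
  have pc := sign_checked c hx1
  have pd := sign_checked d hy1
  constructor
  · have h := four_checked
    simp only [List.all_eq_true, List.mem_range, Bool.or_eq_true, decide_eq_true_eq] at h
    have h' := (h c c.2).resolve_left (by omega)
    refine Equiv.ext fun i => Fin.ext ?_
    rw [permC_pow_apply]
    exact h' i i.2
  · have h := pair_checked
    simp only [List.all_eq_true, List.mem_range, Bool.or_eq_true, decide_eq_true_eq] at h
    have h' := ((h c c.2).resolve_left (by omega) d d.2).resolve_left (by omega)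
    simp only [pairB, Bool.or_eq_true, Bool.not_eq_true', List.all_eq_false, List.any_eq_true, List.all_eq_true,
      List.mem_range, Bool.and_eq_true, decide_eq_true_eq, Bool.and_eq_false_iff, decide_eq_false_iff_not] at h'
    rcases h' with ⟨p, hp, hne⟩ | ⟨i, hi, j, hj, hij, hp⟩
    · exact absurd (congrArg (fun π : Perm (Fin 8) => (π ⟨p, hp⟩ : ℕ)) hxy.eq) hne
    · refine ⟨⟨i, hi⟩, ⟨j, hj⟩, ?_, Equiv.ext fun q => Fin.ext ?_⟩
      · rcases hij with h1 | h1
        · exact Or.inl fun e => h1 (congrArg Fin.val e)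
        · exact Or.inr fun e => h1 (congrArg Fin.val e)
      · rw [Perm.mul_apply, permC_pow_apply, permC_pow_apply]
        exact hp q q.2

/-- No two-generated abelian group of index at most four. -/
theorem no_abelian {Q : Subgroup (Perm (Fin 8))} (hQ : Q ≤ sylEight) (hsgn : ∀ x ∈ Q, Perm.sign x = 1)
    {x y : Perm (Fin 8)} (hx : x ∈ Q) (hy : y ∈ Q) (hxy : Commute x y)
    (hidx : 16 ≤ Nat.card (Subgroup.closure ({x, y} : Set (Perm (Fin 8))))) : False := by
  classical
  obtain ⟨x4, i, j, hij, hrel⟩ := relation_of_comm (hQ hx) (hQ hy) (hsgn x hx) (hsgn y hy) hxy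
  obtain ⟨y4, -⟩ := relation_of_comm (hQ hy) (hQ hx) (hsgn y hy) (hsgn x hx) hxy.symm
  set B := Subgroup.closure ({x, y} : Set (Perm (Fin 8))) with hB
  let f : Fin 4 × Fin 4 → Perm (Fin 8) := fun p => x ^ (p.1 : ℕ) * y ^ (p.2 : ℕ)
  have hf : (B : Set (Perm (Fin 8))) ⊆ Set.range f := by
    intro z hz
    induction hz using Subgroup.closure_induction'' with
    | one => exact ⟨(0, 0), by simp [f]⟩
    | mem z hz =>
      rcases hz with rfl | rfl
      · exact ⟨(1, 0), by simp [f]⟩
      · exact ⟨(0, 1), by simp [f]⟩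
    | inv_mem z hz =>
      rcases hz with rfl | rfl
      · exact ⟨(3, 0), by
          simp only [f]
          rw [show ((3 : Fin 4) : ℕ) = 3 from rfl, show ((0 : Fin 4) : ℕ) = 0 from rfl, pow_zero, mul_one]
          exact (inv_eq_of_mul_eq_one_right (by rw [← pow_succ']; exact x4)).symm⟩
      · exact ⟨(0, 3), by
          simp only [f]
          rw [show ((3 : Fin 4) : ℕ) = 3 from rfl, show ((0 : Fin 4) : ℕ) = 0 from rfl, pow_zero, one_mul]
          exact (inv_eq_of_mul_eq_one_right (by rw [← pow_succ']; exact y4)).symm⟩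
    | mul a b _ _ ha hb =>
      obtain ⟨⟨i, j⟩, rfl⟩ := ha
      obtain ⟨⟨i', j'⟩, rfl⟩ := hb
      refine ⟨(i + i', j + j'), ?_⟩
      simp only [f, Fin.val_add]
      rw [← pow_eq_pow_mod _ x4, ← pow_eq_pow_mod _ y4, pow_add, pow_add, mul_assoc, mul_assoc,
        ← mul_assoc (x ^ (i' : ℕ)), (hxy.pow_pow i' j).eq, mul_assoc]
  have hf00 : f (0, 0) = 1 := by show x ^ 0 * y ^ 0 = 1; rw [pow_zero, pow_zero, one_mul]
  have hfij : f (i, j) = 1 := hrel
  have hne : (i, j) ≠ ((0 : Fin 4), (0 : Fin 4)) := fun e => by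
    obtain ⟨e1, e2⟩ := Prod.ext_iff.1 e
    rcases hij with h | h
    exacts [h e1, h e2]
  set S : Set (Fin 4 × Fin 4) := {(i, j)}ᶜ with hS
  have hsub : (B : Set (Perm (Fin 8))) ⊆ f '' S := by
    intro z hz
    obtain ⟨p, rfl⟩ := hf hz
    by_cases hp : p = (i, j)
    · exact ⟨(0, 0), fun e => hne (Set.mem_singleton_iff.1 e).symm, by rw [hp, hf00, hfij]⟩
    · exact ⟨p, fun e => hp (Set.mem_singleton_iff.1 e), rfl⟩
  have h1 : Nat.card B ≤ S.ncard := by
    rw [show Nat.card B = (B : Set (Perm (Fin 8))).ncard from Nat.card_coe_set_eq _]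
    exact (Set.ncard_le_ncard hsub (Set.toFinite _)).trans (Set.ncard_image_le (Set.toFinite _))
  have h2 : S.ncard = 15 := by
    rw [hS, Set.ncard_compl, Set.ncard_singleton, Nat.card_prod, Nat.card_fin]
  omega

end Cfsg.Agent.Lib.Chev.G2AltSection
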