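import Cfsg.Agent.Lib.Chev.G2AltSection.Torus
import Cfsg.Agent.Lib.Chev.G2AltSection.Eight
import Cfsg.Agent.Lib.Chev.F4AltSection.Lift
import Mathlib.GroupTheory.Perm.List
import Mathlib.GroupTheory.Perm.ViaEmbedding
import Mathlib.GroupTheory.SpecificGroups.Alternating

/-!
Alternating sections of G₂(q) have degree at most `6`, or `7` in characteristic `5`.
-/

set_option autoImplicit false

namespace Cfsg.Agent.Lib.Chev.G2AltSection

open Cfsg.Lie Equiv
open Cfsg.Agent.Lib.Chev.F4AltSection (lift_one)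

/-- A permutation of `Fin n` on the first `n` points of `Fin r`. -/
noncomputable def extAlt {n r : ℕ} (h : n ≤ r) : ↥(alternatingGroup (Fin n)) →* ↥(alternatingGroup (Fin r)) :=
  ((Perm.viaEmbeddingHom (Fin.castLEEmb h)).comp (alternatingGroup (Fin n)).subtype).codRestrict _ fun x => by
    rw [Perm.mem_alternatingGroup]
    show Perm.sign (Perm.viaEmbeddingHom (Fin.castLEEmb h) (x : Perm (Fin n))) = 1
    rw [Perm.viaEmbeddingHom_apply, Perm.viaEmbedding, Perm.sign_extendDomain]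
    exact Perm.mem_alternatingGroup.1 x.2

theorem extAlt_injective {n r : ℕ} (h : n ≤ r) : Function.Injective (extAlt h) := fun x y e =>
  Subtype.ext (Perm.viaEmbeddingHom_injective (Fin.castLEEmb h) (congrArg Subtype.val e))

def s7 : ↥(alternatingGroup (Fin 7)) :=
  ⟨List.formPerm [0, 1, 2, 3, 4], Perm.mem_alternatingGroup.2 (by decide +kernel)⟩

def g7 : ↥(alternatingGroup (Fin 7)) :=
  ⟨List.formPerm [1, 2, 4, 3] * List.formPerm [5, 6], Perm.mem_alternatingGroup.2 (by decide +kernel)⟩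

theorem facts7 : s7 ^ 5 = 1 ∧ s7 ≠ 1 ∧ g7 * s7 * g7⁻¹ = s7 ^ 2 := by decide +kernel

theorem conj_pow_of_commute {Q : Type*} [Group Q] {c g s : Q} {m : ℕ} (hc : Commute c s)
    (hg : g * s * g⁻¹ = s ^ m) (k : ℕ) : (c * g) ^ k * s * ((c * g) ^ k)⁻¹ = s ^ (m ^ k) := by
  induction k with
  | zero => simp
  | succ k ih =>
    have h1 : c * g * s * (c * g)⁻¹ = s ^ m := by
      rw [show c * g * s * (c * g)⁻¹ = c * (g * s * g⁻¹) * c⁻¹ by group, hg, (hc.pow_right m).eq, mul_inv_cancel_right]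
    generalize c * g = d at h1 ih ⊢
    rw [pow_succ', show d * d ^ k * s * (d * d ^ k)⁻¹ = d * (d ^ k * s * (d ^ k)⁻¹) * d⁻¹ by group, ih, ← conj_pow, h1,
      ← pow_mul, pow_succ']

theorem not_five {F : Type*} [Field F] [Fintype F] (p : ℕ) [Fact p.Prime] [CharP F p] (hp : p ≠ 5) (r : ℕ)
    (hr : 7 ≤ r) (H : Subgroup ↥(chevG2.group F)) (π : ↥H →* ↥(alternatingGroup (Fin r)))
    (hπ : Function.Surjective π) : False := by
  classical
  have : Fact (Nat.Prime 5) := ⟨Nat.prime_five⟩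
  have hq : (Fintype.card F : ZMod 5) ≠ 0 := by
    obtain ⟨m, -, hm⟩ := FiniteField.card F p
    rw [hm, Ne, ZMod.natCast_eq_zero_iff]
    exact fun h => hp ((Nat.prime_dvd_prime_iff_eq Nat.prime_five Fact.out).1
      (Nat.prime_five.dvd_of_dvd_pow h)).symm
  set e := extAlt hr
  obtain ⟨hs, hs1, hgs⟩ := facts7
  obtain ⟨A, γ, hA, hγA, ⟨x, hx, hxs⟩, c, hcs, hπγ⟩ :=
    lift_one π hπ (a := 5) (s := e s7) (g := e g7) (by rw [← map_pow, hs, map_one])
      (by rw [← map_inv, ← map_mul, ← map_mul, hgs, map_pow]; exact Subgroup.npow_mem_zpowers _ _)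
  have h := auto_five hq (A.map H.subtype) (hA.map _) (γ : ↥(chevG2.group F)) (by
    rintro _ ⟨u, hu, rfl⟩
    exact ⟨_, hγA u hu, rfl⟩) _ ⟨x, hx, rfl⟩
  have h1 : γ ^ 6 * x * (γ ^ 6)⁻¹ = x := Subtype.ext h
  have h2 := congrArg π h1
  have hg : e g7 * e s7 * (e g7)⁻¹ = e s7 ^ 2 := by rw [← map_inv, ← map_mul, ← map_mul, hgs, map_pow]
  simp only [map_mul, map_inv, map_pow, hπγ, hxs, conj_pow_of_commute hcs hg] at h2
  have ho : orderOf (e s7) = 5 := orderOf_eq_prime (by rw [← map_pow, hs, map_one])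
    (fun h => hs1 (extAlt_injective hr (by rw [map_one]; exact h)))
  conv_rhs at h2 => rw [← pow_one (e s7)]
  rw [pow_eq_pow_iff_modEq, ho] at h2
  exact absurd h2 (by decide)

theorem not_eight {F : Type*} [Field F] [Fintype F] (hodd : Fintype.card F % 2 = 1)
    (H : Subgroup ↥(chevG2.group F)) (π : ↥H →* ↥(alternatingGroup (Fin 8))) (hπ : Function.Surjective π) :
    False := by
  classical
  have : Fact (Nat.Prime 2) := ⟨Nat.prime_two⟩
  obtain ⟨P⟩ : Nonempty (Sylow 2 ↥H) := inferInstance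
  set f := (alternatingGroup (Fin 8)).subtype.comp π
  set Q := (P : Subgroup ↥H).map f with hQdef
  have hQcard : Nat.card Q = 64 := by
    rw [hQdef, ← Subgroup.map_map, Subgroup.card_map_of_injective (Subgroup.subtype_injective _)]
    have h := (P.mapSurjective hπ).card_eq_multiplicity
    rw [Sylow.coe_mapSurjective] at h
    have h8 : Nat.card ↥(alternatingGroup (Fin 8)) = 20160 := by
      rw [nat_card_alternatingGroup, Nat.card_fin]; decide
    rw [h, h8, show (20160 : ℕ) = 2 ^ 6 * 315 from rfl, Nat.factorization_mul (by norm_num) (by norm_num),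
      Finsupp.add_apply, Nat.prime_two.factorization_pow, Finsupp.single_eq_same,
      Nat.factorization_eq_zero_of_not_dvd (by norm_num)]
    norm_num
  -- into the fixed Sylow subgroup
  let S₈ : Sylow 2 (Perm (Fin 8)) := Sylow.ofCard sylEight (by
    rw [card_sylEight, Nat.card_perm, Nat.card_fin, show Nat.factorial 8 = 2 ^ 7 * 315 from rfl,
      Nat.factorization_mul (by norm_num) (by norm_num),
      Finsupp.add_apply, Nat.prime_two.factorization_pow, Finsupp.single_eq_same,
      Nat.factorization_eq_zero_of_not_dvd (by norm_num)]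
    norm_num)
  obtain ⟨R, hR⟩ := (P.isPGroup'.map f).exists_le_sylow
  obtain ⟨g, hg⟩ := MulAction.exists_smul_eq (Perm (Fin 8)) R S₈
  set cg : Perm (Fin 8) →* Perm (Fin 8) := (MulAut.conj g).toMonoidHom with hcg
  set Q' := Q.map cg with hQ'
  have hQ'card : Nat.card Q' = 64 := by
    rw [hQ', Subgroup.card_map_of_injective (MulAut.conj g).injective, hQcard]
  have hQ'le : Q' ≤ sylEight := by
    rintro _ ⟨x, hx, rfl⟩
    have h1 : g * x * g⁻¹ ∈ (S₈ : Subgroup (Perm (Fin 8))) := by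
      rw [← hg, Sylow.smul_def, Sylow.pointwise_smul_def, Subgroup.mem_pointwise_smul_iff_inv_smul_mem]
      simp only [← map_inv, MulAut.smul_def, MulAut.conj_apply, inv_inv]
      rw [show g⁻¹ * (g * x * g⁻¹) * g = x by group]
      exact hR hx
    exact h1
  have hsgn : ∀ x ∈ Q', Perm.sign x = 1 := by
    rintro _ ⟨_, ⟨y, -, rfl⟩, rfl⟩
    show Perm.sign (g * (π y : Perm (Fin 8)) * g⁻¹) = 1
    rw [map_mul, map_mul, Perm.mem_alternatingGroup.1 (π y).2, mul_one, map_inv, mul_inv_cancel]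
  -- the abelian part
  obtain ⟨A, hAP, hcomm, ⟨a, ha, b, hb, hab⟩, hidx⟩ :=
    two_part hodd ((P : Subgroup ↥H).map H.subtype) (P.isPGroup'.map _)
  set A' := A.subgroupOf H with hA'
  have hA'P : A' ≤ (P : Subgroup ↥H) := fun x hx => by
    obtain ⟨y, hy, e⟩ := Subgroup.mem_map.1 (hAP (Subgroup.mem_subgroupOf.1 hx))
    rwa [← H.subtype_injective e]
  have hmap : A'.map H.subtype = A :=
    Subgroup.map_subgroupOf_eq_of_le (hAP.trans (Subgroup.map_subtype_le _))
  have hrel : A'.relIndex (P : Subgroup ↥H) ≤ 4 := by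
    rwa [← hmap, Subgroup.relIndex_map_map_of_injective _ _ H.subtype_injective] at hidx
  set φ := cg.comp f with hφ
  obtain ⟨⟨a₀, ha₀, rfl⟩, ⟨b₀, hb₀, rfl⟩⟩ : a ∈ A'.map H.subtype ∧ b ∈ A'.map H.subtype := by
    rw [hmap]; exact ⟨ha, hb⟩
  have hPQ : (P : Subgroup ↥H).map φ = Q' := by rw [hφ, ← Subgroup.map_map]
  refine no_abelian hQ'le hsgn (x := φ a₀) (y := φ b₀) (hPQ ▸ ⟨a₀, hA'P ha₀, rfl⟩) (hPQ ▸ ⟨b₀, hA'P hb₀, rfl⟩) ?_ ?_
  · have h1 := hcomm _ ha _ hb
    have h2 : a₀ * b₀ = b₀ * a₀ := H.subtype_injective (by rw [map_mul, map_mul]; exact h1)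
    exact (show Commute a₀ b₀ from h2).map φ
  · set B := Subgroup.closure ({φ a₀, φ b₀} : Set (Perm (Fin 8)))
    have hsub : A'.map φ ≤ B := by
      rintro _ ⟨x, hx, rfl⟩
      obtain ⟨i, j, e⟩ := hab _ (Subgroup.mem_subgroupOf.1 hx)
      rw [show x = a₀ ^ i * b₀ ^ j from H.subtype_injective (by rw [map_mul, map_zpow, map_zpow]; exact e),
        map_mul, map_zpow, map_zpow]
      exact mul_mem (zpow_mem (Subgroup.subset_closure (by simp)) _) (zpow_mem (Subgroup.subset_closure (by simp)) _)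
    have h1 := Subgroup.relIndex_mul_relIndex (⊥ : Subgroup (Perm (Fin 8))) (A'.map φ) Q' bot_le
      (hPQ ▸ Subgroup.map_mono hA'P)
    rw [Subgroup.relIndex_bot_left, Subgroup.relIndex_bot_left, hQ'card] at h1
    have h2 : (A'.map φ).relIndex Q' ≤ 4 := by
      have hne : A'.relIndex (P : Subgroup ↥H) ≠ 0 := Subgroup.index_ne_zero_of_finite
      refine (Nat.le_of_dvd (Nat.pos_of_ne_zero hne) ?_).trans hrel
      have hker : ∀ K : Subgroup ↥H, K ≤ (P : Subgroup ↥H) → (K.map φ).relIndex ((P : Subgroup ↥H).map φ) ∣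
          K.relIndex (P : Subgroup ↥H) := fun K hK =>
        (Subgroup.index_dvd_of_le (show (K.subgroupOf (P : Subgroup ↥H)).map (φ.subgroupMap _) ≤
          (K.map φ).subgroupOf ((P : Subgroup ↥H).map φ) by
            rintro _ ⟨x, hx, rfl⟩
            exact Subgroup.mem_subgroupOf.2 ⟨x.1, Subgroup.mem_subgroupOf.1 hx, rfl⟩)).trans
          (Subgroup.index_map_dvd _ (φ.subgroupMap_surjective _))
      exact hPQ ▸ hker A' hA'P
    refine le_trans ?_ (Subgroup.card_le_of_le hsub)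
    nlinarith

theorem section_bound {F : Type*} [Field F] [Fintype F] (p : ℕ) [Fact p.Prime] [CharP F p] (r : ℕ)
    (H : Subgroup ↥(chevG2.group F)) (π : ↥H →* ↥(alternatingGroup (Fin r))) (hπ : Function.Surjective π) :
    r ≤ 6 + (if p = 5 then 1 else 0) := by
  classical
  by_contra hr
  push Not at hr
  by_cases hp : p = 5
  · rw [if_pos hp] at hr
    have hr8 : 8 ≤ r := by omega
    have hodd : Fintype.card F % 2 = 1 := by
      obtain ⟨m, -, hm⟩ := FiniteField.card F p
      rw [hm, hp, Nat.pow_mod]; norm_num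
    set e := extAlt hr8
    set H' := (e.range.comap π).map H.subtype with hH'
    let ψ : ↥(e.range.comap π) →* ↥(alternatingGroup (Fin 8)) :=
      (MonoidHom.ofInjective (extAlt_injective hr8)).symm.toMonoidHom.comp
        ((π.comp (e.range.comap π).subtype).codRestrict e.range fun x => x.2)
    have hψ : Function.Surjective ψ := by
      refine (MonoidHom.ofInjective (extAlt_injective hr8)).symm.surjective.comp fun y => ?_
      obtain ⟨x, hx⟩ := hπ y.1
      exact ⟨⟨x, show π x ∈ e.range by rw [hx]; exact y.2⟩, Subtype.ext hx⟩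
    let iso := Subgroup.equivMapOfInjective (e.range.comap π) H.subtype H.subtype_injective
    exact not_eight hodd H' (ψ.comp iso.symm.toMonoidHom) (hψ.comp iso.symm.surjective)
  · rw [if_neg hp] at hr
    exact not_five p hp r (by omega) H π hπ

end Cfsg.Agent.Lib.Chev.G2AltSection
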