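import Cfsg.Agent.Lib.Chev.G2AltSection.Weyl
import Cfsg.Agent.Lib.Chev.CoxTorus.Conj
import Cfsg.Agent.Lib.Chev.Homocyclic.Main
import Cfsg.Agent.Lib.Chev.Orders
import Cfsg.Agent.Lib.Chev.FieldAut
import Mathlib.FieldTheory.Finite.Extension
import Mathlib.GroupTheory.Sylow

/-!
The two facts on G₂(q) used for alternating sections: the automiser of a 5-subgroup, and an abelian subgroup
of index at most four in every 2-subgroup for odd `q`.
-/

set_option autoImplicit false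

namespace Cfsg.Agent.Lib.Chev.G2AltSection

open Cfsg.Lie Cfsg.Agent.Lib Cfsg.Agent.Lib.Chev Homocyclic
open Cfsg.Agent.Lib.Chev.CoxTorus (wMat wMat_pow cV cV_sg fnl mono_torus_iff conj_decomp' sgPerm)

/-- Field extension of the group. -/
noncomputable def extHom {F L : Type*} [Field F] [Field L] (i : F →+* L) :
    ↥(chevG2.group F) →* ↥(chevG2.group L) where
  toFun g := ⟨gmap chevG2 i g, G2.checked.gmap_group i g.2⟩
  map_one' := Subtype.ext (map_one (gmap chevG2 i))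
  map_mul' g h := Subtype.ext (map_mul (gmap chevG2 i) _ _)

theorem extHom_injective {F L : Type*} [Field F] [Field L] (i : F →+* L) :
    Function.Injective (extHom i) := fun _ _ e => Subtype.ext (gmap_injective i (congrArg Subtype.val e))

theorem root_eq_of_one {L : Type*} [Field L] {n : GL chevG2.Idx L} (hn : n ∈ chevG2.monomialSubgroup L)
    (h : wMat G2.checked n = 1) {v : ℕ} (hv : v < chevG2.nroots) : G2.checked.sg n v = v := by
  set C := G2.checked
  refine C.root_ext (C.sg_lt hn hv) hv fun j hj => ?_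
  have := congrFun (cV_sg C hn hv) ⟨j, hj⟩
  rwa [h, Matrix.vecMul_one] at this

/-- Sixth powers of a normalising element centralise. -/
theorem weyl_six {L : Type*} [Field L] (γ : ↥(chevG2.group L)) (S : Set (GL chevG2.Idx L))
    (hS : ∀ x ∈ S, x ∈ chevG2.diagonalSubgroup L)
    (hγ : ∀ x ∈ S, (γ : GL chevG2.Idx L) * x * (γ : GL chevG2.Idx L)⁻¹ ∈ S) :
    ∀ x ∈ S, (γ : GL chevG2.Idx L) ^ 6 * x * ((γ : GL chevG2.Idx L) ^ 6)⁻¹ = x := by
  set C := G2.checked
  obtain ⟨b, hb, n, hn, u, hu, e⟩ := C.exists_bnu γ.2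
  set γv := (γ : GL chevG2.Idx L) with hγv
  have h1 : ∀ x ∈ S, γv * x * γv⁻¹ = n * x * n⁻¹ := by
    intro x hx
    obtain ⟨c, hc⟩ := C.exists_torus (hS x hx)
    obtain ⟨c', hc'⟩ := C.exists_torus (hS _ (hγ x hx))
    have hrel := (conj_decomp' C hb hn hu (c := c) (c' := c') (by
      rw [hc', hc, ← e]; group)).1
    rw [← hc', ← hc, eq_mul_inv_iff_mul_eq]
    exact ((mono_torus_iff C hn c c').2 hrel).symm
  have hk : ∀ (k : ℕ), ∀ x ∈ S, γv ^ k * x * (γv ^ k)⁻¹ ∈ S ∧ γv ^ k * x * (γv ^ k)⁻¹ = n ^ k * x * (n ^ k)⁻¹ := by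
    intro k
    induction k with
    | zero => intro x hx; simpa using hx
    | succ k ih =>
      intro x hx
      obtain ⟨h2, h3⟩ := ih x hx
      have e1 : γv ^ (k + 1) * x * (γv ^ (k + 1))⁻¹ = γv * (γv ^ k * x * (γv ^ k)⁻¹) * γv⁻¹ := by
        rw [pow_succ']; group
      refine ⟨e1 ▸ hγ _ h2, ?_⟩
      rw [e1, h1 _ h2, h3, pow_succ']
      group
  intro x hx
  rw [(hk 6 x hx).2]
  obtain ⟨c, rfl⟩ := C.exists_torus (hS x hx)
  have hnk := pow_mem hn 6
  have hw : wMat C (n ^ 6) = 1 := by rw [wMat_pow C hn]; exact wMat_pow_six hn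
  rw [mul_inv_eq_iff_eq_mul, (mono_torus_iff C hnk c c).2 fun v hv => by rw [root_eq_of_one hnk hw hv]]

/-- The automiser of a 5-subgroup has exponent dividing six. -/
theorem auto_five {F : Type*} [Field F] [Fintype F] (hq : (Fintype.card F : ZMod 5) ≠ 0)
    (A : Subgroup ↥(chevG2.group F)) (hA : IsPGroup 5 A) (γ : ↥(chevG2.group F))
    (hγA : ∀ x ∈ A, γ * x * γ⁻¹ ∈ A) : ∀ x ∈ A, γ ^ 6 * x * (γ ^ 6)⁻¹ = x := by
  classical
  have : Fact (Nat.Prime 5) := ⟨Nat.prime_five⟩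
  obtain ⟨p, hchar⟩ := CharP.exists F
  have : Fact p.Prime := ⟨CharP.char_is_prime F p⟩
  let L := FiniteField.Extension F p 4
  let _ : Fintype L := Fintype.ofFinite L
  have hQ : (Fintype.card L : ZMod 5) = 1 := by
    rw [← Nat.card_eq_fintype_card, FiniteField.natCard_extension, Nat.card_eq_fintype_card, Nat.cast_pow]
    exact ZMod.pow_card_sub_one_eq_one hq
  let ι := extHom (algebraMap F L)
  obtain ⟨g, hg⟩ := conj_subgroup G2.checked (degs := [2, 6]) (by decide +kernel) (by simp) (r := 5)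
    (by decide) hQ (A.map ι) (hA.map _)
  let φ : ↥(chevG2.group F) →* GL chevG2.Idx L :=
    ((chevG2.group L).subtype.comp (MulAut.conj g).toMonoidHom).comp ι
  have hφ : Function.Injective φ :=
    (Subtype.val_injective.comp (MulAut.conj g).injective).comp (extHom_injective _)
  have hact := weyl_six (g * ι γ * g⁻¹) (φ '' (A : Set ↥(chevG2.group F))) (by
    rintro _ ⟨x, hx, rfl⟩
    exact hg (ι x) ⟨x, hx, rfl⟩) (by
    rintro _ ⟨x, hx, rfl⟩
    refine ⟨γ * x * γ⁻¹, hγA x hx, ?_⟩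
    rw [map_mul, map_mul, map_inv]
    rfl)
  intro x hx
  refine hφ ?_
  rw [map_mul, map_mul, map_inv, map_pow]
  exact hact _ ⟨x, hx, rfl⟩

/-- A group embedded in a product of two copies of a cyclic group is generated by two elements. -/
theorem two_gen {H M : Type*} [Group H] [CommGroup M] [IsCyclic M] (ψ : H →* M × M)
    (hψ : Function.Injective ψ) : ∃ a b : H, ∀ x : H, ∃ i j : ℤ, x = a ^ i * b ^ j := by
  let p₁ := (MonoidHom.fst M M).comp ψ
  let p₂ := (MonoidHom.snd M M).comp ψ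
  obtain ⟨⟨_, a, rfl⟩, ha⟩ := IsCyclic.exists_generator (α := p₁.range)
  obtain ⟨⟨_, b, hb, rfl⟩, hb'⟩ := IsCyclic.exists_generator (α := p₁.ker.map p₂)
  refine ⟨a, b, fun x => ?_⟩
  obtain ⟨i, hi⟩ := Subgroup.mem_zpowers_iff.1 (ha ⟨p₁ x, ⟨x, rfl⟩⟩)
  have hi' : p₁ a ^ i = p₁ x := congrArg Subtype.val hi
  have hk : (a ^ i)⁻¹ * x ∈ p₁.ker := by
    rw [MonoidHom.mem_ker, map_mul, map_inv, map_zpow, hi', inv_mul_cancel]
  obtain ⟨j, hj⟩ := Subgroup.mem_zpowers_iff.1 (hb' ⟨p₂ ((a ^ i)⁻¹ * x), ⟨_, hk, rfl⟩⟩)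
  have hj' : p₂ b ^ j = p₂ ((a ^ i)⁻¹ * x) := congrArg Subtype.val hj
  refine ⟨i, j, ?_⟩
  have e : b ^ j = (a ^ i)⁻¹ * x := hψ (Prod.ext (by
    show p₁ _ = p₁ _
    rw [map_zpow, MonoidHom.mem_ker.1 hb, one_zpow, MonoidHom.mem_ker.1 hk]) (by
    show p₂ _ = p₂ _
    rw [map_zpow]
    exact hj'))
  rw [e, mul_inv_cancel_left]

theorem index_two_part {Q : ℕ} (hQ : Q % 4 = 1) :
    ∃ m, ¬ 2 ∣ m ∧ Q ^ 6 * ((Q + 1) * ((Q ^ 3 + 1) * (Q ^ 2 + Q + 1))) = 4 * m := by
  obtain ⟨k, rfl⟩ : ∃ k, Q = 4 * k + 1 := ⟨Q / 4, by omega⟩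
  have h3 : ∃ l, (4 * k + 1) ^ 3 + 1 = 2 * (2 * l + 1) := ⟨16 * k ^ 3 + 12 * k ^ 2 + 3 * k, by ring⟩
  obtain ⟨l, hl⟩ := h3
  refine ⟨(4 * k + 1) ^ 6 * ((2 * k + 1) * ((2 * l + 1) * ((4 * k + 1) ^ 2 + (4 * k + 1) + 1))), ?_,
    by rw [hl]; ring⟩
  intro h
  simp [Nat.dvd_iff_mod_eq_zero, Nat.mul_mod, Nat.pow_mod, Nat.add_mod] at h

/-- For odd `q`, a 2-subgroup has an abelian two-generated subgroup of index at most four. -/
theorem two_part {F : Type*} [Field F] [Fintype F] (hodd : Fintype.card F % 2 = 1)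
    (P : Subgroup ↥(chevG2.group F)) (hP : IsPGroup 2 P) :
    ∃ (A : Subgroup ↥(chevG2.group F)), A ≤ P ∧ (∀ x ∈ A, ∀ y ∈ A, x * y = y * x) ∧
      (∃ a ∈ A, ∃ b ∈ A, ∀ x ∈ A, ∃ i j : ℤ, x = a ^ i * b ^ j) ∧ A.relIndex P ≤ 4 := by
  classical
  have h2 : Fact (Nat.Prime 2) := ⟨Nat.prime_two⟩
  obtain ⟨p, hchar⟩ := CharP.exists F
  have : Fact p.Prime := ⟨CharP.char_is_prime F p⟩
  let L := FiniteField.Extension F p 2
  let _ : Fintype L := Fintype.ofFinite L
  have hL : Fintype.card L = Fintype.card F ^ 2 := by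
    rw [← Nat.card_eq_fintype_card, FiniteField.natCard_extension, Nat.card_eq_fintype_card]
  have hQ : Fintype.card L % 4 = 1 := by
    rw [hL, Nat.pow_mod]
    have : Fintype.card F % 4 = 1 ∨ Fintype.card F % 4 = 3 := by omega
    rcases this with h | h <;> rw [h]
  set C := G2.checked
  set T' := (chevG2.diagonalSubgroup L).subgroupOf (chevG2.group L) with hT'
  have hker : Nat.card (C.cartanMap (F := L)).ker = 1 := by
    rw [C.card_ker_cartanMap smith_G2, show G2.fast.l = 2 from rfl]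
    simp [Finset.prod_range_succ]
  have hTcard : Nat.card T' = (Fintype.card L - 1) ^ 2 := by
    have h := C.card_diag (F := L)
    rw [hker, one_mul] at h
    rw [Nat.card_congr (Subgroup.subgroupOfEquivOfLe C.diag_le_group).toEquiv]
    exact h
  obtain ⟨m, hm, hidx⟩ : ∃ m, ¬ 2 ∣ m ∧ T'.index = 4 * m := by
    obtain ⟨m, hm, e⟩ := index_two_part hQ
    refine ⟨m, hm, ?_⟩
    have h := T'.card_mul_index
    rw [hTcard] at h
    have hG := card_G2 (F := L) rfl
    rw [one_mul, ← h] at hG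
    rw [← e]
    obtain ⟨n, hn⟩ : ∃ n, Fintype.card L = n + 2 := ⟨Fintype.card L - 2, by
      have := Fintype.one_lt_card (α := L); omega⟩
    rw [hn] at hG ⊢
    refine Nat.eq_of_mul_eq_mul_left (show 0 < (n + 2 - 1) ^ 2 from pow_pos (by omega) _) (hG.trans ?_)
    have h1 : ∀ e : ℕ, 1 ≤ (n + 2) ^ e := fun e => Nat.one_le_pow _ _ (by omega)
    zify [h1, show 1 ≤ n + 2 by omega]
    ring
  obtain ⟨R₀⟩ : Nonempty (Sylow 2 ↥T') := inferInstance
  set A₀ := (R₀ : Subgroup ↥T').map T'.subtype with hA₀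
  obtain ⟨R₁, hR₁⟩ := (R₀.isPGroup'.map T'.subtype).exists_le_sylow
  have hrel : A₀.relIndex (R₁ : Subgroup ↥(chevG2.group L)) = 4 := by
    have h1 : Nat.card R₁ = 4 * Nat.card A₀ := by
      rw [hA₀, Subgroup.card_map_of_injective T'.subtype_injective, R₀.card_eq_multiplicity, R₁.card_eq_multiplicity,
        ← Subgroup.card_mul_index T', Nat.factorization_mul Nat.card_pos.ne' Subgroup.index_ne_zero_of_finite,
        Finsupp.add_apply, hidx, Nat.factorization_mul (by norm_num) (fun h => hm (by rw [h]; exact dvd_zero 2)),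
        Finsupp.add_apply, Nat.factorization_eq_zero_of_not_dvd hm, add_zero, pow_add,
        show (4 : ℕ) = 2 ^ 2 from rfl, Nat.prime_two.factorization_pow, Finsupp.single_eq_same]
      ring
    have h2' := Subgroup.relIndex_mul_relIndex (⊥ : Subgroup ↥(chevG2.group L)) A₀ _ bot_le hR₁
    rw [Subgroup.relIndex_bot_left, Subgroup.relIndex_bot_left, h1, mul_comm 4] at h2'
    exact Nat.eq_of_mul_eq_mul_left Nat.card_pos h2'
  let ι := extHom (algebraMap F L)
  obtain ⟨R₂, hR₂⟩ := (hP.map ι).exists_le_sylow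
  obtain ⟨g, hg⟩ := MulAction.exists_smul_eq ↥(chevG2.group L) R₂ R₁
  let φ : ↥(chevG2.group F) →* ↥(chevG2.group L) := (MulAut.conj g).toMonoidHom.comp ι
  have hφ : Function.Injective φ := (MulAut.conj g).injective.comp (extHom_injective _)
  have hφP : P.map φ ≤ (R₁ : Subgroup ↥(chevG2.group L)) := by
    rintro _ ⟨x, hx, rfl⟩
    rw [← hg, Sylow.smul_def, Sylow.pointwise_smul_def, Subgroup.mem_pointwise_smul_iff_inv_smul_mem]
    simp only [← map_inv, MulAut.smul_def, MulAut.conj_apply, inv_inv]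
    show g⁻¹ * (g * ι x * g⁻¹) * g ∈ R₂
    rw [show g⁻¹ * (g * ι x * g⁻¹) * g = ι x by group]
    exact hR₂ ⟨x, hx, rfl⟩
  set A := P ⊓ A₀.comap φ with hA
  have hdiag : ∀ x ∈ A, ((φ x : ↥(chevG2.group L)) : GL chevG2.Idx L) ∈ chevG2.diagonalSubgroup L := by
    intro x hx
    obtain ⟨y, -, hy⟩ := Subgroup.mem_map.1 (Subgroup.mem_comap.1 hx.2)
    rw [← hy]
    exact Subgroup.mem_subgroupOf.1 y.2
  refine ⟨A, inf_le_left, fun x hx y hy => hφ (Subtype.ext ?_), ?_, ?_⟩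
  · rw [map_mul, map_mul]
    exact C.diag_comm (hdiag x hx) (hdiag y hy)
  · let κ : A →* ↥(chevG2.diagonalSubgroup L) :=
      { toFun := fun x => ⟨_, hdiag x x.2⟩
        map_one' := Subtype.ext (by simp)
        map_mul' := fun x y => Subtype.ext (by simp) }
    have hκ : Function.Injective κ := fun x y e =>
      Subtype.ext (hφ (Subtype.ext (congrArg (fun z : ↥(chevG2.diagonalSubgroup L) => (z : GL chevG2.Idx L)) e)))
    let pr : (Fin chevG2.rank → Lˣ) →* Lˣ × Lˣ :=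
      { toFun := fun f => (f ⟨0, by decide⟩, f ⟨1, by decide⟩)
        map_one' := rfl
        map_mul' := fun _ _ => rfl }
    have hpr : Function.Injective pr := fun f f' e => funext fun k => by
      obtain ⟨k, hk⟩ := k
      have hk2 : k < 2 := hk
      interval_cases k
      exacts [congrArg Prod.fst e, congrArg Prod.snd e]
    obtain ⟨a, b, hab⟩ := two_gen (pr.comp ((coords C L).comp κ)) (hpr.comp ((coords_injective C L).comp hκ))
    refine ⟨a, a.2, b, b.2, fun x hx => ?_⟩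
    obtain ⟨i, j, e⟩ := hab ⟨x, hx⟩
    exact ⟨i, j, by simpa using congrArg Subtype.val e⟩
  · rw [hA, Subgroup.inf_relIndex_left, Subgroup.relIndex_comap]
    exact (Subgroup.relIndex_le_of_le_right hφP (by rw [hrel]; norm_num)).trans hrel.le

end Cfsg.Agent.Lib.Chev.G2AltSection
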