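import Cfsg.Agent.Lib.Chev.All
import Cfsg.Agent.Lib.Chev.CoxTorus.Weyl

/-!
Every element `w` of W(G₂) has `w⁶ = 1`.
-/

set_option autoImplicit false
set_option maxRecDepth 20000

namespace Cfsg.Agent.Lib.Chev.G2AltSection

open Cfsg.Lie Cfsg.Agent.Lib Cfsg.Agent.Lib.Chev
open Cfsg.Agent.Lib.Chev.CoxTorus (wMat cV cV_sg)

/-- The linear map with given images of the two simple roots permutes the roots. -/
def presB (a b : ℕ) : Bool :=
  (List.range 12).all fun v => (List.range 12).any fun u => (List.range 2).all fun k =>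
    decide (G2.fast.cf u k = G2.fast.cf v 0 * G2.fast.cf a k + G2.fast.cf v 1 * G2.fast.cf b k)

/-- Its sixth power is the identity. -/
def sixB (a b : ℕ) : Bool :=
  let m : ℕ → ℕ → ℤ := fun i k => if i = 0 then G2.fast.cf a k else G2.fast.cf b k
  let mul : (ℕ → ℕ → ℤ) → (ℕ → ℕ → ℤ) → (ℕ → ℕ → ℤ) := fun A B i k => A i 0 * B 0 k + A i 1 * B 1 k
  let m6 := mul (mul (mul m m) m) (mul (mul m m) m)
  (List.range 2).all fun i => (List.range 2).all fun k => decide (m6 i k = if i = k then 1 else 0)

theorem six_checked : ∀ a : Fin 12, ∀ b : Fin 12, presB a b = true → sixB a b = true := by decide +kernel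

theorem nroots_eq : chevG2.nroots = 12 := by decide +kernel

/-- The exponent of W(G₂) divides six. -/
theorem wMat_pow_six {F : Type*} [Field F] {n : GL chevG2.Idx F} (hn : n ∈ chevG2.monomialSubgroup F) :
    wMat G2.checked n ^ 6 = 1 := by
  set C := G2.checked
  have hlt : ∀ {v}, v < chevG2.nroots → C.sg n v < 12 := fun hv => nroots_eq ▸ C.sg_lt hn hv
  set a := C.sg n (chevG2.simple 0) with hadef
  set b := C.sg n (chevG2.simple 1) with hbdef
  have ha : a < 12 := hlt (C.root.simple_lt 0 (by decide))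
  have hb : b < 12 := hlt (C.root.simple_lt 1 (by decide))
  have hpres : presB a b = true := by
    simp only [presB, List.all_eq_true, List.any_eq_true, List.mem_range, decide_eq_true_eq]
    intro v hv
    have hv' : v < chevG2.nroots := nroots_eq.symm ▸ hv
    refine ⟨C.sg n v, hlt hv', fun k hk => ?_⟩
    have h := congrFun (cV_sg C hn hv') ⟨k, hk⟩
    simp only [cV, Matrix.vecMul, dotProduct] at h
    exact h.trans (Fin.sum_univ_two _)
  have h6 := six_checked ⟨a, ha⟩ ⟨b, hb⟩ hpres
  simp only [sixB, List.all_eq_true, List.mem_range, decide_eq_true_eq] at h6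
  set M := wMat C n with hM
  have hrow : ∀ (i k : Fin chevG2.rank), M i k = if (i : ℕ) = 0 then G2.fast.cf a k else G2.fast.cf b k := by
    intro i k
    obtain ⟨i, hi⟩ := i
    have hi2 : i < 2 := hi
    interval_cases i <;> rfl
  have e6 : M ^ 6 = M * M * M * (M * M * M) := by simp only [pow_succ, pow_zero, one_mul, mul_assoc]
  rw [e6]
  ext i k
  have h := h6 i i.2 k k.2
  have hone : (1 : Matrix (Fin chevG2.rank) (Fin chevG2.rank) ℤ) i k = if (i : ℕ) = k then 1 else 0 := by
    rw [Matrix.one_apply]; simp only [Fin.ext_iff]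
  rw [hone, ← h]
  have hs : ∀ f : Fin chevG2.rank → ℤ, ∑ j, f j = f ⟨0, by decide⟩ + f ⟨1, by decide⟩ := fun f => Fin.sum_univ_two f
  simp only [Matrix.mul_apply, hs, hrow]

end Cfsg.Agent.Lib.Chev.G2AltSection
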